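import Cfsg.Agent.H6.Fi23.C1.D1

set_option autoImplicit false
set_option maxRecDepth 100000
set_option Elab.async false

namespace Cfsg.H6.Fi23.C1

theorem b0 : allR (blk get gs (gwB gwh 183) gd 730877630508623121816105603200201502214911215887110255979425565901056) 4 637 = true := by decide +kernel

theorem b1 : allR (blk get gs (gwB gwh 183) gd 730877630508623121816105603200201502214911215887110255979425565901056) 641 664 = true := by decide +kernel

theorem b2 : allR (blk get gs (gwB gwh 183) gd 730877630508623121816105603200201502214911215887110255979425565901056) 1305 678 = true := by decide +kernel

theorem b3 : allR (blk get gs (gwB gwh 183) gd 730877630508623121816105603200201502214911215887110255979425565901056) 1983 684 = true := by decide +kernel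

end Cfsg.H6.Fi23.C1
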